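import Mathlib
import Cfsg.Agent.Lib.Helper83.MinSU.Defs
import Cfsg.Agent.Lib.Helper5.GUOrder

set_option autoImplicit false

namespace Cfsg.Agent.Lib.Helper28.MinSU

open Matrix Cfsg.Agent.Lib.Helper13 Cfsg.Agent.Lib.Helper5 Cfsg.Agent.Lib.Helper57.RootSU
  Cfsg.Agent.Lib.Helper83.MinSU

/-- the `i`-th factor of the order of `GU` -/
def gf (q i : ℕ) : ℕ := if Even i then q ^ (i + 1) + 1 else q ^ (i + 1) - 1

lemma gf_even (q j : ℕ) : gf q (2 * j) = q ^ (2 * j + 1) + 1 := by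
  rw [gf, if_pos (even_two_mul j)]

lemma gf_odd (q j : ℕ) : gf q (2 * j + 1) = q ^ (2 * j + 1 + 1) - 1 := by
  rw [gf, if_neg (by simp)]

lemma gub_a1 (q x : ℕ) (hq : 2 ≤ q) (hx : 1 ≤ x) : x * (x * q) ≤ (x + 1) * (x * q - 1) := by
  obtain ⟨y, hy⟩ : ∃ y, x * q = y + 1 := ⟨x * q - 1, by
    have : 1 ≤ x * q := Nat.mul_pos hx (by omega)
    omega⟩
  have hxy : x ≤ y := by nlinarith
  rw [hy, Nat.add_sub_cancel]
  nlinarith

lemma gub_a2 (q x : ℕ) (hq : 2 ≤ q) (hx : 1 ≤ x) : (x - 1) * (x * q + 1) ≤ x * (x * q) := by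
  obtain ⟨y, rfl⟩ : ∃ y, x = y + 1 := ⟨x - 1, by omega⟩
  rw [Nat.add_sub_cancel]
  have h1 : y ≤ (y + 1) * q := by nlinarith
  calc y * ((y + 1) * q + 1) = y * ((y + 1) * q) + y := by ring
    _ ≤ y * ((y + 1) * q) + (y + 1) * q := by omega
    _ = (y + 1) * ((y + 1) * q) := by ring

lemma gub_low_even (q : ℕ) (hq : 2 ≤ q) (j : ℕ) :
    ∏ i ∈ Finset.range (2 * j), q ^ (i + 1) ≤ ∏ i ∈ Finset.range (2 * j), gf q i := by
  induction j with
  | zero => simp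
  | succ j ih =>
    have e : 2 * (j + 1) = 2 * j + 1 + 1 := by ring
    rw [e, Finset.prod_range_succ, Finset.prod_range_succ, Finset.prod_range_succ,
      Finset.prod_range_succ, gf_even, gf_odd, mul_assoc, mul_assoc]
    refine Nat.mul_le_mul ih ?_
    rw [pow_succ q (2 * j + 1)]
    exact gub_a1 q _ hq (Nat.one_le_pow _ _ (by omega))

lemma gub_up_odd (q : ℕ) (hq : 2 ≤ q) (j : ℕ) :
    q * ∏ i ∈ Finset.range (2 * j + 1), gf q i ≤
      (q + 1) * ∏ i ∈ Finset.range (2 * j + 1), q ^ (i + 1) := by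
  induction j with
  | zero =>
    simp [gf]
    nlinarith
  | succ j ih =>
    have e : 2 * (j + 1) + 1 = 2 * j + 1 + 1 + 1 := by ring
    have e2 : 2 * j + 1 + 1 = 2 * (j + 1) := by ring
    rw [e, Finset.prod_range_succ, Finset.prod_range_succ,
      Finset.prod_range_succ (fun i => q ^ (i + 1)), Finset.prod_range_succ (fun i => q ^ (i + 1)),
      gf_odd]
    rw [show gf q (2 * j + 1 + 1) = q ^ (2 * j + 1 + 1 + 1) + 1 by rw [e2, gf_even]]
    rw [mul_assoc, mul_assoc, ← mul_assoc q, ← mul_assoc (q + 1)]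
    refine Nat.mul_le_mul ih ?_
    rw [pow_succ q (2 * j + 1 + 1)]
    exact gub_a2 q _ hq (Nat.one_le_pow _ _ (by omega))

lemma gub_prod (q : ℕ) (hq : 2 ≤ q) (k : ℕ) :
    ∏ i ∈ Finset.range k, q ^ (i + 1) ≤ ∏ i ∈ Finset.range k, gf q i ∧
      q * ∏ i ∈ Finset.range k, gf q i ≤ (q + 1) * ∏ i ∈ Finset.range k, q ^ (i + 1) := by
  rcases Nat.even_or_odd' k with ⟨j, rfl | rfl⟩
  · refine ⟨gub_low_even q hq j, ?_⟩
    rcases j with _ | j
    · simp
    · have e : 2 * (j + 1) = 2 * j + 1 + 1 := by ring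
      rw [e, Finset.prod_range_succ, Finset.prod_range_succ (fun i => q ^ (i + 1)), gf_odd,
        ← mul_assoc, ← mul_assoc]
      exact Nat.mul_le_mul (gub_up_odd q hq j) (Nat.sub_le _ _)
  · refine ⟨?_, gub_up_odd q hq j⟩
    rw [Finset.prod_range_succ, Finset.prod_range_succ, gf_even]
    exact Nat.mul_le_mul (gub_low_even q hq j) (Nat.le_succ _)

lemma gub_exp (q k : ℕ) :
    q ^ (k * (k - 1) / 2) * ∏ i ∈ Finset.range k, q ^ (i + 1) = q ^ (k ^ 2) := by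
  rw [Finset.prod_pow_eq_pow_sum, ← pow_add, ← Finset.sum_range_id, ← Finset.sum_add_distrib]
  congr 1
  induction k with
  | zero => simp
  | succ k ih => rw [Finset.sum_range_succ, ih]; ring

variable {F : Type*} [Field F] [Fintype F] {q m n : ℕ}

/-- [GUB] -/
theorem card_GU_bounds (hF : Fintype.card F = q ^ 2) (k : ℕ) :
    q ^ (k ^ 2) ≤ Nat.card (Cfsg.GU k F q) ∧
      q * Nat.card (Cfsg.GU k F q) ≤ (q + 1) * q ^ (k ^ 2) := by
  have hq := two_le_of_card_sq hF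
  have h := card_GU hF k
  have h' : Nat.card (Cfsg.GU k F q) = q ^ (k * (k - 1) / 2) * ∏ i ∈ Finset.range k, gf q i := h
  obtain ⟨h1, h2⟩ := gub_prod q hq k
  rw [h', ← gub_exp q k]
  constructor
  · exact Nat.mul_le_mul le_rfl h1
  · calc q * (q ^ (k * (k - 1) / 2) * ∏ i ∈ Finset.range k, gf q i)
        = q ^ (k * (k - 1) / 2) * (q * ∏ i ∈ Finset.range k, gf q i) := by ring
      _ ≤ q ^ (k * (k - 1) / 2) * ((q + 1) * ∏ i ∈ Finset.range k, q ^ (i + 1)) :=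
        Nat.mul_le_mul le_rfl h2
      _ = _ := by ring

end Cfsg.Agent.Lib.Helper28.MinSU
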