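import Mathlib
import Cfsg.Agent.Lib.Helper83.MinSU.Defs
import Cfsg.Agent.Lib.Helper5.SUParabolic
import Cfsg.Agent.Lib.Helper8.MinSU.NUM

set_option autoImplicit false

namespace Cfsg.Agent.Lib.Helper28.MinSU

open Matrix Module Cfsg.Agent.Lib.Helper13 Cfsg.Agent.Lib.Helper5 Cfsg.Agent.Lib.Helper57.RootSU
  Cfsg.Agent.Lib.Helper83.MinSU Cfsg.Agent.Lib.Helper94 Cfsg.Agent.Lib.Helper94.U

variable {F : Type*} [Field F] [Fintype F] {q m n : ℕ}

local notation "V" => (Fin n → F)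

/-- the stabiliser in `SU_n` of a subspace -/
abbrev St (q : ℕ) (W : Submodule F V) : Subgroup (Cfsg.SU n F q) :=
  (Cfsg.stabilizing (Cfsg.slToMat n F) (W : Set V)).subgroupOf (Cfsg.SU n F q)

lemma le_St (W : Submodule F V) (K : Subgroup (Cfsg.SU n F q))
    (hK : ∀ k ∈ K, ∀ x ∈ W, k.1.1 *ᵥ x ∈ W) : K ≤ St q W := by
  intro k hk
  exact mem_iff_of_forall_mem (actL (Cfsg.slToMat n F) k.1) W (fun w hw => hK k hk w hw)

instance finite_SU : Finite (Cfsg.SU n F q) := Subtype.finite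

lemma index_St_le (W : Submodule F V) (K : Subgroup (Cfsg.SU n F q))
    (hK : ∀ k ∈ K, ∀ x ∈ W, k.1.1 *ᵥ x ∈ W) : (St q W).index ≤ K.index :=
  Nat.le_of_dvd (Nat.pos_of_ne_zero Subgroup.index_ne_zero_of_finite)
    (Subgroup.index_dvd_of_le (le_St W K hK))

/-- `index * ((q+1) |St|) = |GU_n|` -/
lemma index_St_mul (hF : Fintype.card F = q ^ 2) (hn : 1 ≤ n) (W : Submodule F V) :
    (St q W).index * ((q + 1) * Nat.card (St q W)) = Nat.card (Cfsg.GU n F q) := by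
  rw [← card_SU_mul hF hn, ← (St q W).index_mul_card]
  ring

/-- `NU q n * (q-1) * (q+1) ≤ q x (x+1)` with `x = q^(n-1)` -/
lemma NU_le (hq : 3 ≤ q) (hn : 1 ≤ n) (he : Even n) :
    NU q n * ((q - 1) * (q + 1)) ≤ q * q ^ (n - 1) * (q ^ (n - 1) + 1) := by
  have h := Cfsg.Agent.Lib.Helper8.MinSU.NU_mul (q := q) (n := n) (by omega) he
  have e : q ^ 2 - 1 = (q - 1) * (q + 1) := by
    obtain ⟨t, rfl⟩ : ∃ t, q = t + 1 := ⟨q - 1, by omega⟩
    have : (t + 1) ^ 2 = t * (t + 1 + 1) + 1 := by ring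
    rw [this]; simp
  rw [← e, h]
  have e2 : q ^ n = q * q ^ (n - 1) := by
    rw [← pow_succ']; congr 1; omega
  rw [e2]
  exact Nat.mul_le_mul (Nat.sub_le _ _) le_rfl

end Cfsg.Agent.Lib.Helper28.MinSU
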