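import Mathlib
import Cfsg.Agent.Lib.Helper28.MinSU.S1base
import Cfsg.Agent.Lib.Helper28.MinSU.GUB
import Cfsg.Agent.Lib.Helper81.MinSU.PEI
import Cfsg.Agent.Lib.Helper45.SUWrap
import Cfsg.Agent.Lib.Helper94.HermDim

set_option autoImplicit false

namespace Cfsg.Agent.Lib.Helper28.MinSU

open Matrix Module Cfsg.Agent.Lib.Helper13 Cfsg.Agent.Lib.Helper5 Cfsg.Agent.Lib.Helper57.RootSU
  Cfsg.Agent.Lib.Helper83.MinSU Cfsg.Agent.Lib.Helper94 Cfsg.Agent.Lib.Helper94.U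

/-- the general lower bound for the index of a parabolic -/
lemma s1c_arith (q k l I G b c : ℕ) (hq : 1 ≤ q)
    (h : I * (q ^ (k * (2 * (2 * k + l) - 3 * k)) * G * b) = c)
    (hc : q ^ ((2 * k + l) ^ 2) ≤ c) (hG : G ≤ q ^ (2 * k ^ 2))
    (hb : q * b ≤ (q + 1) * q ^ (l ^ 2)) :
    q ^ (k ^ 2 + 2 * (k * l) + 1) ≤ I * (q + 1) := by
  have e : 2 * (2 * k + l) - 3 * k = k + 2 * l := by omega
  rw [e] at h
  have hpos : 0 < q ^ (k * (k + 2 * l) + 2 * k ^ 2 + l ^ 2) := Nat.pow_pos (by omega)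
  apply Nat.le_of_mul_le_mul_right _ hpos
  calc q ^ (k ^ 2 + 2 * (k * l) + 1) * q ^ (k * (k + 2 * l) + 2 * k ^ 2 + l ^ 2)
      = q ^ ((2 * k + l) ^ 2) * q := by
        rw [← pow_add, ← pow_succ]; congr 1; ring
    _ ≤ c * q := Nat.mul_le_mul hc le_rfl
    _ = I * (q ^ (k * (k + 2 * l)) * G * (q * b)) := by rw [← h]; ring
    _ ≤ I * (q ^ (k * (k + 2 * l)) * q ^ (2 * k ^ 2) * ((q + 1) * q ^ (l ^ 2))) :=
        Nat.mul_le_mul le_rfl (Nat.mul_le_mul (Nat.mul_le_mul le_rfl hG) hb)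
    _ = I * (q + 1) * q ^ (k * (k + 2 * l) + 2 * k ^ 2 + l ^ 2) := by
        rw [pow_add, pow_add]; ring

lemma s1c_exp (k l : ℕ) (hk : 2 ≤ k) (hn : 6 ≤ 2 * k + l) (h63 : ¬ (k = 3 ∧ l = 0)) :
    4 * k + 2 * l ≤ k ^ 2 + 2 * (k * l) + 2 := by
  rcases Nat.lt_or_ge k 4 with h4 | h4
  · interval_cases k
    · omega
    · omega
  · obtain ⟨k', rfl⟩ : ∃ k', k = k' + 4 := ⟨k - 4, by omega⟩
    nlinarith [Nat.zero_le (k' * l), Nat.zero_le (k' * k')]

/-- `NU (q+1) ≤ q^(2n-1)` -/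
lemma s1c_NU (q x N : ℕ) (hq : 3 ≤ q) (hx : 1 ≤ x)
    (hN : N * ((q - 1) * (q + 1)) ≤ q * x * (x + 1)) : N * (q + 1) ≤ q * x ^ 2 := by
  obtain ⟨t, rfl⟩ : ∃ t, q = t + 3 := ⟨q - 3, by omega⟩
  have e : t + 3 - 1 = t + 2 := by omega
  rw [e] at hN
  have hpos : 0 < t + 2 := by positivity
  apply Nat.le_of_mul_le_mul_right _ hpos
  have key : x + 1 ≤ x * (t + 2) := by nlinarith [Nat.zero_le (x * t)]
  calc N * (t + 3 + 1) * (t + 2) = N * ((t + 2) * (t + 3 + 1)) := by ring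
    _ ≤ (t + 3) * x * (x + 1) := hN
    _ ≤ (t + 3) * x * (x * (t + 2)) := Nat.mul_le_mul le_rfl key
    _ = (t + 3) * x ^ 2 * (t + 2) := by ring

/-- the case `n = 6`, `k = 3` -/
lemma s1c_63 (q I N : ℕ) (hq : 3 ≤ q)
    (h : I * (q ^ 9 * (((q ^ 2) ^ 3 - 1) * ((q ^ 2) ^ 3 - q ^ 2) * ((q ^ 2) ^ 3 - (q ^ 2) ^ 2))) =
      q ^ 15 * ((q + 1) * (q ^ 2 - 1) * (q ^ 3 + 1) * (q ^ 4 - 1) * (q ^ 5 + 1) * (q ^ 6 - 1)))
    (hN : N * (q ^ 2 - 1) = (q ^ 6 - 1) * (q ^ 5 + 1)) : N ≤ I := by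
  obtain ⟨A, hA⟩ : ∃ A, q ^ 2 = A + 1 := ⟨q ^ 2 - 1, by
    have : 1 ≤ q ^ 2 := Nat.one_le_pow _ _ (by omega)
    omega⟩
  have hA0 : 0 < A := by nlinarith
  have e4 : q ^ 4 = (A + 1) ^ 2 := by rw [← hA]; ring
  have e6 : q ^ 6 = (A + 1) ^ 3 := by rw [← hA]; ring
  have e15 : q ^ 15 = q ^ 9 * (A + 1) ^ 3 := by rw [← hA]; ring
  have s1 : (A + 1) ^ 3 - 1 = A * (A ^ 2 + 3 * A + 3) := Nat.sub_eq_of_eq_add (by ring)
  have s2 : (A + 1) ^ 3 - (A + 1) = (A + 1) * A * (A + 2) := Nat.sub_eq_of_eq_add (by ring)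
  have s3 : (A + 1) ^ 3 - (A + 1) ^ 2 = (A + 1) ^ 2 * A := Nat.sub_eq_of_eq_add (by ring)
  have s4 : (A + 1) ^ 2 - 1 = A * (A + 2) := Nat.sub_eq_of_eq_add (by ring)
  rw [e4, e6, e15, hA, s1, s2, s3, s4, Nat.add_sub_cancel] at h
  rw [e6, hA, s1, Nat.add_sub_cancel] at hN
  have hI : I = (q + 1) * (q ^ 3 + 1) * (q ^ 5 + 1) := by
    have hpos : 0 < q ^ 9 * A ^ 3 * (A + 1) ^ 3 * (A + 2) * (A ^ 2 + 3 * A + 3) := by
      have : 0 < q := by omega
      positivity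
    apply Nat.eq_of_mul_eq_mul_right hpos
    calc I * (q ^ 9 * A ^ 3 * (A + 1) ^ 3 * (A + 2) * (A ^ 2 + 3 * A + 3))
        = I * (q ^ 9 * (A * (A ^ 2 + 3 * A + 3) * ((A + 1) * A * (A + 2)) * ((A + 1) ^ 2 * A))) := by
          ring
      _ = _ := h
      _ = _ := by ring
  have hN' : N = (A ^ 2 + 3 * A + 3) * (q ^ 5 + 1) := by
    apply Nat.eq_of_mul_eq_mul_right hA0
    rw [hN]; ring
  rw [hI, hN']
  apply Nat.mul_le_mul _ le_rfl
  have : (q + 1) * (q ^ 3 + 1) = (A + 1) ^ 2 + q * (A + 1) + q + 1 := by rw [← hA]; ring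
  rw [this]
  nlinarith [Nat.zero_le (q * A)]

variable {F : Type*} [Field F] [Fintype F] {q m n : ℕ}

/-- a totally isotropic subspace has at most half the dimension -/
lemma two_mul_finrank_le_of_ti (hF : Fintype.card F = q ^ 2) (R : Submodule F (Fin n → F))
    (hR : ∀ u ∈ R, ∀ v ∈ R, Cfsg.hermForm n F q u v = 0) : 2 * finrank F R ≤ n := by
  have h1 := finrank_perp (Cfsg.Agent.Lib.Helper45.SUGen.hermH hF n) R
  have h2 : R ≤ perp (hermB hF n) R := by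
    intro x hx u hu
    rw [hermB_apply]
    exact hR x hx u hu
  have h3 := Submodule.finrank_mono h2
  rw [Module.finrank_fintype_fun_eq_card, Fintype.card_fin] at h1
  omega

/-- [S1c] -/
theorem index_stab_ti (hF : Fintype.card F = q ^ 2) (hq : 3 ≤ q) (hn : 6 ≤ n) (he : Even n)
    (R : Submodule F (Fin n → F)) (hR0 : R ≠ ⊥)
    (hR : ∀ u ∈ R, ∀ v ∈ R, Cfsg.hermForm n F q u v = 0)
    (K : Subgroup (Cfsg.SU n F q)) (hK : ∀ k ∈ K, ∀ x ∈ R, k.1.1 *ᵥ x ∈ R) :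
    NU q n ≤ K.index := by
  refine le_trans ?_ (index_St_le R K hK)
  have h2k := two_mul_finrank_le_of_ti hF R hR
  have hkpos : 0 < finrank F R := by
    rw [Module.finrank_pos_iff, Submodule.nontrivial_iff_ne_bot]
    exact hR0
  by_cases hk1 : finrank F R = 1
  · obtain ⟨e, heR, he0⟩ := Submodule.exists_mem_ne_zero_of_ne_bot hR0
    have hspan : Submodule.span F {e} = R := by
      apply Submodule.eq_of_le_of_finrank_eq
      · rw [Submodule.span_singleton_le_iff_mem]; exact heR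
      · rw [finrank_span_singleton he0, hk1]
    have := Cfsg.Agent.Lib.Helper81.MinSU.index_Pe hF (by omega) he e he0 (hR e heR e heR)
    rw [← this, ← hspan]
    exact le_rfl
  · have h1 := index_St_mul hF (by omega) R
    rw [card_su_parabolic hF (finrank F R) (by omega) h2k R rfl hR] at h1
    generalize finrank F R = k at *
    obtain ⟨l, rfl⟩ : ∃ l, n = 2 * k + l := ⟨n - 2 * k, by omega⟩
    have hN := NU_le hq (by omega) he
    by_cases h63 : k = 3 ∧ l = 0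
    · obtain ⟨rfl, rfl⟩ := h63
      have hc := card_GU hF 6
      have hNm := Cfsg.Agent.Lib.Helper8.MinSU.NU_mul (q := q) (n := 2 * 3 + 0) (by omega) he
      rw [hc] at h1
      have ev5 : ¬ Even 5 := by decide
      have ev4 : Even 4 := by decide
      have ev3 : ¬ Even 3 := by decide
      simp [Finset.prod_range_succ, Fin.prod_univ_succ, ev5, ev4, ev3] at h1 hNm
      rw [← mul_assoc ((q ^ 2) ^ 3 - 1)] at h1
      exact s1c_63 q _ _ hq h1 hNm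
    · have e1 : 2 * k + l - 2 * k = l := by omega
      rw [e1, ← card_GU hF l] at h1
      have hG : ∏ i : Fin k, ((q ^ 2) ^ k - (q ^ 2) ^ (i : ℕ)) ≤ q ^ (2 * k ^ 2) := by
        calc ∏ i : Fin k, ((q ^ 2) ^ k - (q ^ 2) ^ (i : ℕ)) ≤ ((q ^ 2) ^ k) ^ (Finset.univ : Finset (Fin k)).card :=
              Finset.prod_le_pow_card _ _ _ (fun i _ => Nat.sub_le _ _)
          _ = q ^ (2 * k ^ 2) := by
              rw [Finset.card_univ, Fintype.card_fin, ← pow_mul, ← pow_mul]; congr 1; ring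
      have hb := s1c_arith q k l _ _ _ _ (by omega) h1 (card_GU_bounds hF _).1 hG
        (card_GU_bounds hF l).2
      have hexp := s1c_exp k l (by omega) hn h63
      have hNU := s1c_NU q (q ^ (2 * k + l - 1)) _ hq (Nat.one_le_pow _ _ (by omega)) hN
      have hpos : 0 < q + 1 := by omega
      apply Nat.le_of_mul_le_mul_right _ hpos
      refine hNU.trans (le_trans ?_ hb)
      rw [← pow_mul, ← pow_succ']
      apply Nat.pow_le_pow_right (by omega)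
      omega

end Cfsg.Agent.Lib.Helper28.MinSU
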