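import Mathlib
import Cfsg.Agent.Lib.Helper83.MinSU.Defs
import Cfsg.Agent.Lib.Helper5.SUParabolic
import Cfsg.Agent.Lib.Helper5.GUNondegStab

set_option autoImplicit false

namespace Cfsg.Agent.Lib.Helper28.MinSU

open Matrix Module Cfsg.Agent.Lib.Helper13 Cfsg.Agent.Lib.Helper5 Cfsg.Agent.Lib.Helper57.RootSU
  Cfsg.Agent.Lib.Helper83.MinSU Cfsg.Agent.Lib.Helper94 Cfsg.Agent.Lib.Helper94.U

variable {F : Type*} [Field F] [Fintype F] {q m n : ℕ}

local notation "H" => Cfsg.hermForm n F q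
local notation "V" => (Fin n → F)

/-- a vector of norm one in a nonzero nondegenerate subspace -/
lemma exists_norm_one_mem (hF : Fintype.card F = q ^ 2) (W : Submodule F V) (hW0 : W ≠ ⊥)
    (hW : Nondeg q W) : ∃ z ∈ W, H z z = 1 := by
  have hq := two_le_of_card_sq hF
  obtain ⟨x, -, hx2, hx3⟩ := exists_orthonormal_frame hF n (finrank F W) W rfl hW
  have hpos : 0 < finrank F W := by
    rw [Module.finrank_pos_iff, Submodule.nontrivial_iff_ne_bot]
    exact hW0
  refine ⟨x ⟨0, hpos⟩, ?_, ?_⟩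
  · have h1 : x ⟨0, hpos⟩ ∈ Submodule.span F (Set.range x) := Submodule.subset_span ⟨_, rfl⟩
    exact (le_of_eq hx2) h1
  · rw [hx3]
    unfold Cfsg.hermForm
    rw [Finset.sum_eq_single (⟨0, hpos⟩ : Fin (finrank F W))]
    · simp
    · intro b _ hb
      simp [hb]
    · intro h
      exact absurd (Finset.mem_univ _) h

lemma qrefl_preserves (hF : Fintype.card F = q ^ 2) {z : V} (hz : H z z = 1) {μ : F}
    (hμ : μ ^ (q + 1) = 1) (x y : V) :
    H (dil n q ((μ - 1) • z) z *ᵥ x) (dil n q ((μ - 1) • z) z *ᵥ y) = H x y := by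
  rw [dil_mulVec, dil_mulVec]
  simp only [hermForm_add_left, hermForm_smul_left, hermForm_add_right hF, hermForm_smul_right,
    hz, sub_pow_q hF, one_pow]
  rw [← hermForm_swap hF y z]
  have h1 : μ ^ q * μ = 1 := by rw [← pow_succ]; exact hμ
  linear_combination (H x z * (H y z) ^ q) * h1

lemma exists_gu_stab_det_nondeg (hF : Fintype.card F = q ^ 2) (W : Submodule F V) (hW0 : W ≠ ⊥)
    (hW : Nondeg q W) (μ : Fˣ) (hμ : μ ^ (q + 1) = 1) :
    ∃ A : Cfsg.GU n F q, A ∈ Cfsg.stabilizing (guToMat n F q) (W : Set V) ∧ detGU n F q A = μ := by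
  obtain ⟨z, hzW, hz⟩ := exists_norm_one_mem hF W hW0 hW
  have hμ' : (μ : F) ^ (q + 1) = 1 := by
    have := congrArg Units.val hμ
    simpa using this
  have hdet : (dil n q (((μ : F) - 1) • z) z).det = μ := by
    rw [dil_det, hermForm_smul_left, hz]
    ring
  let A : Cfsg.GU n F q := ⟨Matrix.GeneralLinearGroup.mkOfDetNeZero (dil n q (((μ : F) - 1) • z) z)
    (by rw [hdet]; exact μ.ne_zero), qrefl_preserves hF hz hμ'⟩
  refine ⟨A, ?_, ?_⟩
  · refine mem_iff_of_forall_mem (actL (guToMat n F q) A) W ?_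
    intro w hw
    change dil n q (((μ : F) - 1) • z) z *ᵥ w ∈ W
    rw [dil_mulVec]
    exact W.add_mem hw (W.smul_mem _ (W.smul_mem _ hzW))
  · apply Units.ext
    simpa [detGU, A] using hdet

/-- [S1d0] -/
theorem card_su_stab_nondeg_mul (hF : Fintype.card F = q ^ 2) (W : Submodule F (Fin n → F))
    (hW0 : W ≠ ⊥) (hW : Nondeg q W) :
    (q + 1) * Nat.card ((Cfsg.stabilizing (Cfsg.slToMat n F)
        (W : Set (Fin n → F))).subgroupOf (Cfsg.SU n F q)) =
      Nat.card (Cfsg.GU (Module.finrank F W) F q) *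
        Nat.card (Cfsg.GU (n - Module.finrank F W) F q) := by
  have hn : 1 ≤ n := by
    rcases Nat.eq_zero_or_pos n with h0 | h0
    · subst h0
      exfalso
      apply hW0
      rw [Submodule.eq_bot_iff]
      intro x _
      exact Subsingleton.elim _ _
    · exact h0
  have hle : finrank F W ≤ n := by
    have := Submodule.finrank_le W
    rwa [Module.finrank_fintype_fun_eq_card, Fintype.card_fin] at this
  obtain ⟨E⟩ := gu_stab_nondeg hF n (finrank F W) hle W rfl hW
  have heq : (Cfsg.stabilizing (Cfsg.glToMat (Fin n) F) (W : Set (Fin n → F))).subgroupOf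
      (Cfsg.GU n F q) = Cfsg.stabilizing (guToMat n F q) (W : Set (Fin n → F)) :=
    Subgroup.ext fun _ => Iff.rfl
  rw [← Nat.card_prod, ← Nat.card_congr E.toEquiv, heq]
  set S := Cfsg.stabilizing (guToMat n F q) (W : Set V) with hS
  let δ : S →* Fˣ := (detGU n F q).comp S.subtype
  have h1 := Subgroup.card_eq_card_quotient_mul_card_subgroup δ.ker
  have h2 : Nat.card (S ⧸ δ.ker) = q + 1 := by
    rw [Nat.card_congr (QuotientGroup.quotientKerEquivRange _).toEquiv, ← card_norm_one_units hF]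
    have : (δ.range : Set Fˣ) = {x | x ^ (q + 1) = 1} := by
      ext x
      constructor
      · rintro ⟨A, rfl⟩
        have : detGU n F q A.1 ∈ ((detGU n F q).range : Set Fˣ) := ⟨A.1, rfl⟩
        rw [range_detGU hF hn] at this
        exact this
      · intro hx
        obtain ⟨A, hA, hAx⟩ := exists_gu_stab_det_nondeg hF W hW0 hW x hx
        exact ⟨⟨A, hA⟩, hAx⟩
    exact Nat.card_congr (Equiv.setCongr this)
  have h3 : Nat.card δ.ker =
      Nat.card ((Cfsg.stabilizing (Cfsg.slToMat n F) (W : Set V)).subgroupOf (Cfsg.SU n F q)) := by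
    symm
    refine Nat.card_congr (Equiv.ofBijective
      (fun B => ⟨⟨suToGU n F q B.1, B.2⟩, ?_⟩) ⟨?_, ?_⟩)
    · rw [MonoidHom.mem_ker]
      have : suToGU n F q B.1 ∈ (detGU n F q).ker := by
        rw [← range_suToGU]; exact ⟨B.1, rfl⟩
      exact this
    · intro B B' h
      apply Subtype.ext
      apply suToGU_injective
      exact congrArg (fun x => x.1.1) h
    · rintro ⟨⟨A, hA⟩, hA'⟩
      have : A ∈ (suToGU n F q).range := by
        rw [range_suToGU]; exact hA'
      obtain ⟨B, rfl⟩ := this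
      exact ⟨⟨B, hA⟩, rfl⟩
  rw [h1, h2, h3]

end Cfsg.Agent.Lib.Helper28.MinSU
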