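import Mathlib
import Cfsg.Agent.Lib.Helper28.MinSU.S1base
import Cfsg.Agent.Lib.Helper28.MinSU.S1d0
import Cfsg.Agent.Lib.Helper28.MinSU.GUB

set_option autoImplicit false

namespace Cfsg.Agent.Lib.Helper28.MinSU

open Matrix Module Cfsg.Agent.Lib.Helper13 Cfsg.Agent.Lib.Helper5 Cfsg.Agent.Lib.Helper57.RootSU
  Cfsg.Agent.Lib.Helper83.MinSU Cfsg.Agent.Lib.Helper94 Cfsg.Agent.Lib.Helper94.U

/-- the lower bound for the index from the bounds of the three orders -/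
lemma s1d_arith (q j l I a b c : ℕ) (hq : 1 ≤ q) (h : I * (a * b) = c)
    (hc : q ^ ((j + l) ^ 2) ≤ c) (ha : q * a ≤ (q + 1) * q ^ (j ^ 2))
    (hb : q * b ≤ (q + 1) * q ^ (l ^ 2)) :
    q ^ (2 * (j * l) + 2) ≤ I * (q + 1) ^ 2 := by
  have hpos : 0 < q ^ (j ^ 2 + l ^ 2) := Nat.pow_pos (by omega)
  apply Nat.le_of_mul_le_mul_right _ hpos
  calc q ^ (2 * (j * l) + 2) * q ^ (j ^ 2 + l ^ 2) = q ^ ((j + l) ^ 2) * q ^ 2 := by
        rw [← pow_add, ← pow_add]; congr 1; ring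
    _ ≤ c * q ^ 2 := Nat.mul_le_mul hc le_rfl
    _ = I * ((q * a) * (q * b)) := by rw [← h]; ring
    _ ≤ I * (((q + 1) * q ^ (j ^ 2)) * ((q + 1) * q ^ (l ^ 2))) :=
        Nat.mul_le_mul le_rfl (Nat.mul_le_mul ha hb)
    _ = I * (q + 1) ^ 2 * q ^ (j ^ 2 + l ^ 2) := by rw [pow_add]; ring

/-- first arithmetic inequality -/
lemma s1d_first (q x N I : ℕ) (hq : 3 ≤ q) (hx : q ≤ x)
    (hN : N * ((q - 1) * (q + 1)) ≤ q * x * (x + 1))
    (hI : q ^ 2 * x ^ 2 ≤ I * (q + 1) ^ 2) : N ≤ I := by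
  obtain ⟨t, rfl⟩ : ∃ t, q = t + 3 := ⟨q - 3, by omega⟩
  have e : t + 3 - 1 = t + 2 := by omega
  rw [e] at hN
  have hpos : 0 < (t + 2) * (t + 3 + 1) * (t + 3 + 1) := by positivity
  apply Nat.le_of_mul_le_mul_right _ hpos
  have key : (x + 1) * (t + 3 + 1) ≤ (t + 3) * x * (t + 2) := by
    nlinarith [Nat.zero_le (x * t), Nat.zero_le (x * t * t)]
  calc N * ((t + 2) * (t + 3 + 1) * (t + 3 + 1)) = (N * ((t + 2) * (t + 3 + 1))) * (t + 3 + 1) := by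
        ring
    _ ≤ ((t + 3) * x * (x + 1)) * (t + 3 + 1) := Nat.mul_le_mul hN le_rfl
    _ = ((t + 3) * x) * ((x + 1) * (t + 3 + 1)) := by ring
    _ ≤ ((t + 3) * x) * ((t + 3) * x * (t + 2)) := Nat.mul_le_mul le_rfl key
    _ = ((t + 3) ^ 2 * x ^ 2) * (t + 2) := by ring
    _ ≤ (I * (t + 3 + 1) ^ 2) * (t + 2) := Nat.mul_le_mul hI le_rfl
    _ = I * ((t + 2) * (t + 3 + 1) * (t + 3 + 1)) := by ring

/-- `NU ≤ q^(2n-2)` -/
lemma s1d_NU_le_sq (q x N : ℕ) (hq : 3 ≤ q) (hx : q ≤ x)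
    (hN : N * ((q - 1) * (q + 1)) ≤ q * x * (x + 1)) : N ≤ x ^ 2 := by
  obtain ⟨t, rfl⟩ : ∃ t, q = t + 3 := ⟨q - 3, by omega⟩
  have e : t + 3 - 1 = t + 2 := by omega
  rw [e] at hN
  have hpos : 0 < (t + 2) * (t + 3 + 1) := by positivity
  apply Nat.le_of_mul_le_mul_right _ hpos
  refine hN.trans ?_
  have key : (t + 3) * (x + 1) ≤ x * ((t + 2) * (t + 3 + 1)) := by
    nlinarith [Nat.zero_le (x * t), Nat.zero_le (x * t * t)]
  calc (t + 3) * x * (x + 1) = x * ((t + 3) * (x + 1)) := by ring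
    _ ≤ x * (x * ((t + 2) * (t + 3 + 1))) := Nat.mul_le_mul le_rfl key
    _ = x ^ 2 * ((t + 2) * (t + 3 + 1)) := by ring

lemma s1d_n_le (q m : ℕ) (hq : 3 ≤ q) : m + 6 ≤ q ^ (m + 2) := by
  have h3 : m + 6 ≤ 3 ^ (m + 2) := by
    induction m with
    | zero => norm_num
    | succ m ih =>
      have : 3 ^ (m + 1 + 2) = 3 * 3 ^ (m + 2) := by ring
      omega
  exact h3.trans (Nat.pow_le_pow_left hq _)

lemma s1d_aux1 (j l : ℕ) (hj : 1 ≤ j) (hl : 1 ≤ l) : j + l ≤ j * l + 1 := by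
  obtain ⟨j', rfl⟩ : ∃ j', j = j' + 1 := ⟨j - 1, by omega⟩
  obtain ⟨l', rfl⟩ : ∃ l', l = l' + 1 := ⟨l - 1, by omega⟩
  nlinarith [Nat.zero_le (j' * l')]

lemma s1d_aux2 (j l : ℕ) (hj : 3 ≤ j) (hl : 3 ≤ l) : 3 * (j + l) ≤ j * l + 9 := by
  obtain ⟨j', rfl⟩ : ∃ j', j = j' + 3 := ⟨j - 3, by omega⟩
  obtain ⟨l', rfl⟩ : ∃ l', l = l' + 3 := ⟨l - 3, by omega⟩
  nlinarith [Nat.zero_le (j' * l')]

variable {F : Type*} [Field F] [Fintype F] {q m n : ℕ}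

/-- [S1d] -/
theorem index_stab_nondeg (hF : Fintype.card F = q ^ 2) (hq : 3 ≤ q) (hn : 6 ≤ n) (he : Even n)
    (W : Submodule F (Fin n → F)) (hW0 : W ≠ ⊥) (hW1 : W ≠ ⊤) (hW : Nondeg q W)
    (K : Subgroup (Cfsg.SU n F q)) (hK : ∀ k ∈ K, ∀ x ∈ W, k.1.1 *ᵥ x ∈ W) :
    NU q n ≤ K.index ∧
      (3 ≤ Module.finrank F W → Module.finrank F W + 3 ≤ n → n * NU q n ≤ K.index) := by
  have hle := index_St_le W K hK
  have h1 := index_St_mul hF (by omega) W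
  rw [card_su_stab_nondeg_mul hF W hW0 hW] at h1
  set j := finrank F W with hj
  have hjpos : 0 < j := by
    rw [hj, Module.finrank_pos_iff, Submodule.nontrivial_iff_ne_bot]
    exact hW0
  have hjlt : j < n := by
    have := Submodule.finrank_lt hW1
    rwa [Module.finrank_fintype_fun_eq_card, Fintype.card_fin] at this
  obtain ⟨l, hl⟩ : ∃ l, n = j + l := ⟨n - j, by omega⟩
  have hnl : n - j = l := by omega
  rw [hnl] at h1
  have hb := s1d_arith q j l _ _ _ _ (by omega) h1 (by rw [← hl]; exact (card_GU_bounds hF n).1)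
    (card_GU_bounds hF j).2 (card_GU_bounds hF l).2
  have hN := NU_le hq (by omega) he
  have hx : q ≤ q ^ (n - 1) := by
    calc q = q ^ 1 := (pow_one q).symm
      _ ≤ q ^ (n - 1) := Nat.pow_le_pow_right (by omega) (by omega)
  constructor
  · refine le_trans ?_ hle
    apply s1d_first q (q ^ (n - 1)) _ _ hq hx hN
    refine le_trans ?_ hb
    rw [← pow_mul, ← pow_add]
    apply Nat.pow_le_pow_right (by omega)
    have : j + l ≤ j * l + 1 := s1d_aux1 j l hjpos (by omega)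
    omega
  · intro h3 h3'
    refine le_trans ?_ hle
    have hN2 := s1d_NU_le_sq q (q ^ (n - 1)) _ hq hx hN
    have hpos : 0 < (q + 1) ^ 2 := by positivity
    apply Nat.le_of_mul_le_mul_right _ hpos
    refine le_trans ?_ hb
    have hq3 : (q + 1) ^ 2 ≤ q ^ 3 := by nlinarith [Nat.mul_le_mul hq hq]
    have hnq : n ≤ q ^ (n - 4) := by
      obtain ⟨m', rfl⟩ : ∃ m', n = m' + 6 := ⟨n - 6, by omega⟩
      have := s1d_n_le q m' hq
      have e : m' + 6 - 4 = m' + 2 := by omega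
      rw [e]; exact this
    calc n * NU q n * (q + 1) ^ 2 ≤ q ^ (n - 4) * (q ^ (n - 1)) ^ 2 * q ^ 3 :=
          Nat.mul_le_mul (Nat.mul_le_mul hnq hN2) hq3
      _ = q ^ (n - 4 + (n - 1) * 2 + 3) := by rw [← pow_mul, ← pow_add, ← pow_add]
      _ ≤ q ^ (2 * (j * l) + 2) := by
          apply Nat.pow_le_pow_right (by omega)
          have : 3 * (j + l) ≤ j * l + 9 := s1d_aux2 j l h3 (by omega)
          omega

end Cfsg.Agent.Lib.Helper28.MinSU
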